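import Mathlib
import Cfsg.Agent.Base
import Cfsg.Agent.Lib.Functor.Qd
import Cfsg.Agent.Lib.Functor.Chain

/-!
Fusion data giving the section `F(p)`, eigenvectors on abelian subgroups, and their transport.
-/

set_option autoImplicit false

namespace H59.ZF

open Subgroup Cfsg H69 H59 H58.Qd
open scoped commutatorElement MatrixGroups

variable {p : ℕ} {G G' : Type*} [Group G] [Group G']

/-- Two additive functionals on the `p`-group `V` on which `x` acts as a transvection and `h` as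
`diag(μ, μ⁻¹)`. -/
def PhiAt (μ : ZMod p) (K V : Subgroup G) : Prop :=
  V ≤ K ∧ IsPGroup p V ∧ ∃ f g : G → ZMod p,
    (∀ u ∈ V, ∀ v ∈ V, f (u * v) = f u + f v) ∧ (∀ u ∈ V, ∀ v ∈ V, g (u * v) = g u + g v) ∧
    (∃ v ∈ V, g v ≠ 0) ∧ ∃ x ∈ K ⊓ 𝐍(V), ∃ h ∈ K ⊓ 𝐍(V), ∀ v ∈ V,
      f (x * v * x⁻¹) = f v + g v ∧ g (x * v * x⁻¹) = g v ∧
      f (h * v * h⁻¹) = μ * f v ∧ μ * g (h * v * h⁻¹) = g v

/-- The data of `PhiAt` for some `V`. -/
def Phi (μ : ZMod p) (K : Subgroup G) : Prop := ∃ V, PhiAt μ K V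

/-- `h` has an eigenvector with eigenvalue `n` in `W`. -/
def Eig (n : ℕ) (h : G) (W : Subgroup G) : Prop := ∃ c ∈ W, c ≠ 1 ∧ h * c * h⁻¹ = c ^ n

theorem eqns_phi : True := by
  have := @PhiAt.eq_1.{0}
  have := @Phi.eq_1.{0}
  have := @Eig.eq_1.{0}
  trivial

section PhiT
variable {μ : ZMod p}

theorem Phi.mono {K K' : Subgroup G} (h : Phi μ K) (hK : K ≤ K') : Phi μ K' := by
  obtain ⟨V, hV, hp, f, g, hf, hg, hne, x, hx, y, hy, H⟩ := h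
  exact ⟨V, hV.trans hK, hp, f, g, hf, hg, hne, x, ⟨hK hx.1, hx.2⟩, y, ⟨hK hy.1, hy.2⟩, H⟩

theorem map_mem_normalizer_map (π : G →* G') {V : Subgroup G} {x : G} (hx : x ∈ 𝐍(V)) :
    π x ∈ 𝐍(V.map π) := by
  rw [← cj_eq_self_iff, ← map_cj, cj_eq_of_mem_normalizer hx]

theorem PhiAt.map {K V : Subgroup G} (h : PhiAt μ K V) (π : G →* G')
    (hπ : Function.Injective π) : PhiAt μ (K.map π) (V.map π) := by
  obtain ⟨hV, hp, f, g, hf, hg, ⟨v₀, hv₀, hne⟩, x, hx, y, hy, H⟩ := h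
  have hi : ∀ a, Function.invFun π (π a) = a := Function.leftInverse_invFun hπ
  refine ⟨map_mono hV, hp.map π, f ∘ Function.invFun π, g ∘ Function.invFun π, ?_, ?_,
    ⟨π v₀, mem_map_of_mem π hv₀, by simpa [hi] using hne⟩, π x,
    ⟨mem_map_of_mem π hx.1, map_mem_normalizer_map π hx.2⟩, π y,
    ⟨mem_map_of_mem π hy.1, map_mem_normalizer_map π hy.2⟩, ?_⟩
  · rintro _ ⟨u, hu, rfl⟩ _ ⟨v, hv, rfl⟩
    simp only [Function.comp, ← map_mul, hi]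
    exact hf u hu v hv
  · rintro _ ⟨u, hu, rfl⟩ _ ⟨v, hv, rfl⟩
    simp only [Function.comp, ← map_mul, hi]
    exact hg u hu v hv
  · rintro _ ⟨v, hv, rfl⟩
    simp only [Function.comp, ← map_inv, ← map_mul, hi]
    exact H v hv

theorem Phi.map {K : Subgroup G} (h : Phi μ K) (π : G →* G') (hπ : Function.Injective π) :
    Phi μ (K.map π) :=
  let ⟨V, hV⟩ := h
  ⟨V.map π, hV.map π hπ⟩

theorem Phi.cj {K : Subgroup G} (h : Phi μ K) (k : G) : Phi μ (K ^ᶜ k) :=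
  h.map _ (MulAut.conj k).injective

variable [Finite G] [Fact p.Prime]

theorem Phi.comap {K : Subgroup G} (π : G →* G') (h : Phi μ (K.map π)) : Phi μ K := by
  obtain ⟨V', hV, hp, f, g, hf, hg, ⟨v₀, hv₀, hne⟩, x, hx, y, hy, H⟩ := h
  obtain ⟨V, hS⟩ := exists_isSylowIn p (K ⊓ V'.comap π)
  have hX : (K ⊓ V'.comap π).map π = V' := by
    refine le_antisymm (map_le_iff_le_comap.2 inf_le_right) fun z hz => ?_
    obtain ⟨k, hk, rfl⟩ := hV hz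
    exact ⟨k, ⟨hk, hz⟩, rfl⟩
  have hVm : V.map π = V' := by
    have h1 := hS.map π
    rw [hX] at h1
    exact (h1.max V' h1.le le_rfl hp).symm
  have hmem : ∀ v ∈ V, π v ∈ V' := fun v hv => (hS.le hv).2
  have lift : ∀ z ∈ K.map π ⊓ 𝐍(V'), ∃ z₀ ∈ K ⊓ 𝐍(V), π z₀ = z := by
    rintro _ ⟨⟨z, hz, rfl⟩, hzn⟩
    have hn : z ∈ 𝐍(K ⊓ V'.comap π) := by
      rw [← cj_eq_self_iff, cj_inf, comap_cj, cj_eq_of_mem hz, cj_eq_of_mem_normalizer hzn]
    obtain ⟨n, hn', a, ha, rfl⟩ := hS.frattini hn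
    obtain ⟨v, hv, e⟩ : π n ∈ V.map π := hVm ▸ hn'.2
    refine ⟨v * a, ⟨mul_mem (hS.le hv).1 ?_, mul_mem (le_normalizer hv) ha⟩, ?_⟩
    · exact (K.mul_mem_cancel_left hn'.1).1 hz
    · rw [map_mul, map_mul, e]
  obtain ⟨x₀, hx₀, rfl⟩ := lift x hx
  obtain ⟨y₀, hy₀, rfl⟩ := lift y hy
  obtain ⟨w₀, hw₀, rfl⟩ : v₀ ∈ V.map π := hVm ▸ hv₀
  refine ⟨V, hS.le.trans inf_le_left, hS.isP, f ∘ π, g ∘ π, fun u hu v hv => ?_,
    fun u hu v hv => ?_, ⟨w₀, hw₀, hne⟩, x₀, hx₀, y₀, hy₀, fun v hv => ?_⟩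
  · simp only [Function.comp, map_mul]
    exact hf _ (hmem u hu) _ (hmem v hv)
  · simp only [Function.comp, map_mul]
    exact hg _ (hmem u hu) _ (hmem v hv)
  · simp only [Function.comp, map_mul, map_inv]
    exact H _ (hmem v hv)

theorem Phi.fus {M K T : Subgroup G} (h : Phi μ K) (hT : IsSylowIn p T K) (hTM : T ≤ M)
    (hF : Fus M K T) : Phi μ (K ⊓ M) := by
  obtain ⟨V₀, hV₀⟩ := h
  obtain ⟨k, hk, hkT⟩ := hT.exists_cj_le hV₀.2.1 hV₀.1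
  have h1 := hV₀.map (MulAut.conj k).toMonoidHom (MulAut.conj k).injective
  change PhiAt μ (K ^ᶜ k) (V₀ ^ᶜ k) at h1
  rw [cj_eq_of_mem hk] at h1
  generalize V₀ ^ᶜ k = V at h1 hkT
  obtain ⟨hV, hp, f, g, hf, hg, hne, x, hx, y, hy, H⟩ := h1
  have key : ∀ z ∈ K ⊓ 𝐍(V), ∃ z' ∈ (K ⊓ M) ⊓ 𝐍(V), Agree V z' z := by
    intro z hz
    obtain ⟨z', hz', e⟩ := hF V z hkT hz.1 (by rw [cj_eq_of_mem_normalizer hz.2]; exact hkT)
    refine ⟨z', ⟨hz', cj_eq_self_iff.1 ?_⟩, e⟩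
    rw [e.cj_eq, cj_eq_of_mem_normalizer hz.2]
  obtain ⟨x', hx', ex⟩ := key x hx
  obtain ⟨y', hy', ey⟩ := key y hy
  refine ⟨V, le_inf hV (hkT.trans hTM), hp, f, g, hf, hg, hne, x', hx', y', hy', fun v hv => ?_⟩
  rw [ex v hv, ey v hv]
  exact H v hv

end PhiT

section EigT
variable {n : ℕ}

theorem eig_iff [Finite G] {h : G} {W : Subgroup G} (hW : W ≤ 𝐂(W)) (hh : h ∈ 𝐍(W)) :
    Eig n h W ↔ ¬ ∀ w ∈ W, ∃ w' ∈ W, w = h * w' * h⁻¹ * (w' ^ n)⁻¹ := by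
  have hc : ∀ a ∈ W, ∀ b ∈ W, Commute a b := fun a ha b hb =>
    mem_centralizer_iff_commute.1 (hW hb) a ha
  let δ : W →* W :=
    { toFun := fun w => ⟨h * w * h⁻¹ * (w ^ n)⁻¹,
        mul_mem (conj_mem_of_mem_normalizer hh w.2) (inv_mem (pow_mem w.2 n))⟩
      map_one' := Subtype.ext (by simp)
      map_mul' := fun a b => Subtype.ext (by
        have h1 := hc _ (conj_mem_of_mem_normalizer hh b.2) _ (inv_mem (pow_mem a.2 n))
        have h2 := hc _ (inv_mem (pow_mem b.2 n)) _ (inv_mem (pow_mem a.2 n))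
        change h * (a * b) * h⁻¹ * (((a : G) * b) ^ n)⁻¹ =
          h * a * h⁻¹ * ((a : G) ^ n)⁻¹ * (h * b * h⁻¹ * ((b : G) ^ n)⁻¹)
        rw [(hc _ a.2 _ b.2).mul_pow, mul_inv_rev, h2.eq, ← conj_mul, mul_assoc (h * a * h⁻¹),
          ← mul_assoc (h * b * h⁻¹), h1.eq]
        simp only [mul_assoc]) }
  have h1 : Eig n h W ↔ ¬ Function.Injective δ := by
    rw [injective_iff_map_eq_one]
    constructor
    · rintro ⟨c, hc, hne, e⟩ hinj
      exact hne (congrArg Subtype.val (hinj ⟨c, hc⟩ (Subtype.ext (mul_inv_eq_one.2 e))))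
    · intro hn
      push Not at hn
      obtain ⟨c, hc, hne⟩ := hn
      exact ⟨c, c.2, fun e => hne (Subtype.ext e), mul_inv_eq_one.1 (congrArg Subtype.val hc)⟩
  rw [h1, Finite.injective_iff_surjective]
  refine not_congr ⟨fun hs w hw => ?_, fun hs w => ?_⟩
  · obtain ⟨w', e⟩ := hs ⟨w, hw⟩
    exact ⟨w', w'.2, (congrArg Subtype.val e).symm⟩
  · obtain ⟨w', hw', e⟩ := hs w w.2
    exact ⟨⟨w', hw'⟩, Subtype.ext e.symm⟩

theorem map_le_centralizer_map (π : G →* G') {A B : Subgroup G} (h : A ≤ 𝐂(B)) :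
    A.map π ≤ 𝐂(B.map π) := by
  rintro _ ⟨a, ha, rfl⟩
  rw [mem_centralizer_iff_commute]
  rintro _ ⟨b, hb, rfl⟩
  rw [← map_mul, ← map_mul, mem_centralizer_iff_commute.1 (h ha) b hb]

theorem Eig.comap [Finite G] [Finite G'] {h : G} {W : Subgroup G} (hW : W ≤ 𝐂(W))
    (hh : h ∈ 𝐍(W)) (π : G →* G') (he : Eig n (π h) (W.map π)) : Eig n h W := by
  rw [eig_iff (map_le_centralizer_map π hW) (map_mem_normalizer_map π hh)] at he
  rw [eig_iff hW hh]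
  intro hs
  apply he
  rintro _ ⟨w, hw, rfl⟩
  obtain ⟨w', hw', rfl⟩ := hs w hw
  exact ⟨π w', mem_map_of_mem π hw', by simp⟩

theorem Eig.map {h : G} {W : Subgroup G} (he : Eig n h W) (π : G →* G')
    (hπ : Function.Injective π) : Eig n (π h) (W.map π) := by
  obtain ⟨c, hc, hne, e⟩ := he
  refine ⟨π c, mem_map_of_mem π hc, fun h1 => hne (hπ (h1.trans (map_one π).symm)), ?_⟩
  rw [← map_pow, ← e]
  simp

theorem Eig.mono {h : G} {W W' : Subgroup G} (he : Eig n h W) (hW : W ≤ W') : Eig n h W' :=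
  let ⟨c, hc, hne, e⟩ := he
  ⟨c, hW hc, hne, e⟩

/-- An eigenvalue seen by an additive function with values in a field is an eigenvalue. -/
theorem eig_of_functional [Finite G] {h : G} {W : Subgroup G} (hW : W ≤ 𝐂(W)) (hh : h ∈ 𝐍(W))
    {F : Type*} [Field F] (f : G → F) (hf : ∀ u ∈ W, ∀ v ∈ W, f (u * v) = f u + f v)
    (hne : ∃ w ∈ W, f w ≠ 0) (he : ∀ w ∈ W, f (h * w * h⁻¹) = n * f w) : Eig n h W := by
  rw [eig_iff hW hh]
  intro hs
  obtain ⟨w, hw, hne⟩ := hne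
  obtain ⟨w', hw', rfl⟩ := hs w hw
  apply hne
  let φ : W →* Multiplicative F :=
    MonoidHom.mk' (fun w => Multiplicative.ofAdd (f w)) fun a b => by
      rw [← ofAdd_add, ← hf _ a.2 _ b.2]; rfl
  have h1 : f ((w' ^ n)⁻¹) = -(n * f w') := by
    have := congrArg Multiplicative.toAdd (show φ ((⟨w', hw'⟩ ^ n)⁻¹) = (φ ⟨w', hw'⟩ ^ n)⁻¹ by
      rw [map_inv, map_pow])
    rw [toAdd_inv, toAdd_pow, nsmul_eq_mul] at this
    exact this
  rw [hf _ (conj_mem_of_mem_normalizer hh hw') _ (inv_mem (pow_mem hw' n)), he _ hw', h1,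
    add_neg_cancel]

end EigT

end H59.ZF
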