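import Mathlib
import Cfsg.Agent.Base
import Cfsg.Agent.Lib.ZJF59.Phi
import Cfsg.Agent.Lib.Functor.QdFree
import Cfsg.Agent.S0801

/-!
Two quadratic elements on an elementary abelian group: a diagonal element.
-/

set_option autoImplicit false

namespace H59.ZF

open Subgroup Cfsg H69 H59 H24
open scoped commutatorElement MatrixGroups

theorem zmod_three : ∀ ν : ZMod 3, ν = 0 ∨ ν = 1 ∨ ν = 2 := by decide

variable {p : ℕ} [hp : Fact p.Prime]

theorem exists_diag {K : Type*} [Field K] [Finite K] [CharP K p] (hp2 : p ≠ 2) {c : K}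
    (hc : c ≠ 0) {M : Subgroup SL(2, K)} (h1 : upT c ∈ M) (h2 : loT 1 ∈ M) {μ : ZMod p}
    (h0 : μ ≠ 0) : ∃ d ∈ M, (μ.val : K) * d 0 0 = 1 ∧ d 0 1 = 0 ∧ d 1 0 = 0 ∧ d 1 1 = μ.val := by
  classical
  let F : Subfield K := Subfield.closure {c}
  haveI : Fintype F := Fintype.ofFinite F
  let lam : F := ⟨c, Subfield.subset_closure rfl⟩
  have hchar : ∀ n : ℕ, (n : F) = 0 ↔ p ∣ n := fun n => by
    rw [← CharP.cast_eq_zero_iff K p, ← F.subtype.injective.eq_iff, map_natCast, map_zero]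
  have h2F : (2 : F) ≠ 0 := fun h => by
    have : ((2 : ℕ) : F) = 0 := by exact_mod_cast h
    exact hp2 ((Nat.prime_dvd_prime_iff_eq hp.out Nat.prime_two).1 ((hchar 2).1 this))
  have hμF : (μ.val : F) ≠ 0 := fun h =>
    h0 ((ZMod.val_eq_zero μ).1 (Nat.eq_zero_of_dvd_of_lt ((hchar _).1 h) (ZMod.val_lt μ)))
  have hgen : Subfield.closure ({lam} : Set F) = ⊤ := by
    rw [eq_top_iff]
    intro z _
    have h3 : (z : K) ∈ (Subfield.closure ({lam} : Set F)).map F.subtype := by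
      rw [RingHom.map_field_closure, Set.image_singleton]
      exact z.2
    obtain ⟨w, hw, e⟩ := h3
    exact (Subtype.ext e : w = z) ▸ hw
  let ι : SL(2, F) →* SL(2, K) := Matrix.SpecialLinearGroup.map F.subtype
  set M₀ := closure {g : SL(2, F) | (g : Matrix (Fin 2) (Fin 2) F) = !![1, 0; 1, 1] ∨
    (g : Matrix (Fin 2) (Fin 2) F) = !![1, lam; 0, 1]} with hM₀
  have hM : M₀ ≤ M.comap ι := by
    rw [hM₀, closure_le]
    rintro g (hg | hg)
    · obtain rfl : g = loT 1 := Subtype.ext hg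
      change ι _ ∈ M
      rw [map_loT, map_one]
      exact h2
    · obtain rfl : g = upT lam := Subtype.ext hg
      change ι _ ∈ M
      rw [map_upT]
      exact h1
  suffices h : ∃ d ∈ M₀, (μ.val : F) * d 0 0 = 1 ∧ d 0 1 = 0 ∧ d 1 0 = 0 ∧ d 1 1 = μ.val by
    obtain ⟨d, hd, e1, e2, e3, e4⟩ := h
    have hι : ∀ i j, ι d i j = F.subtype (d i j) := fun i j => rfl
    refine ⟨ι d, hM hd, ?_, ?_, ?_, ?_⟩
    · rw [hι, ← map_natCast F.subtype, ← map_mul, e1, map_one]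
    · rw [hι, e2, map_zero]
    · rw [hι, e3, map_zero]
    · rw [hι, e4, map_natCast]
  rcases Cfsg.Agent.S0801.result h2F lam (fun h => hc (congrArg Subtype.val h)) hgen with
    ⟨h, -⟩ | ⟨h9, -, h⟩
  · refine ⟨H64.SL2.mk (μ.val : F)⁻¹ 0 0 μ.val (by rw [inv_mul_cancel₀ hμF]; simp), ?_, ?_, rfl, rfl,
      rfl⟩
    · rw [hM₀, h]; trivial
    · exact mul_inv_cancel₀ hμF
  · have hp3 : p = 3 := by
      have h3 : p ∣ 9 := (hchar 9).1 (by rw [← h9]; exact Nat.cast_card_eq_zero F)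
      exact (Nat.prime_dvd_prime_iff_eq hp.out Nat.prime_three).1
        (hp.out.dvd_of_dvd_pow (n := 2) h3)
    subst hp3
    have hμ : μ = 1 ∨ μ = 2 :=
      (zmod_three μ).resolve_left h0
    rcases hμ with rfl | rfl
    · refine ⟨1, one_mem _, ?_, rfl, rfl, ?_⟩
      · change ((1 : ℕ) : F) * 1 = 1
        simp
      · change (1 : F) = ((1 : ℕ) : F)
        simp
    · haveI : Fact (Nat.Prime 2) := ⟨Nat.prime_two⟩
      obtain ⟨t, ht⟩ := exists_prime_orderOf_dvd_card' (G := M₀) 2 (by rw [h]; norm_num)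
      have ht2 : (t : SL(2, F)) * t = 1 := by
        have := pow_orderOf_eq_one t
        rw [ht, sq] at this
        exact congrArg Subtype.val this
      have h3 : ((2 : ℕ) : F) = -1 := by
        have := (hchar 3).2 dvd_rfl
        push_cast at this ⊢
        linear_combination this
      rcases H64.SL2.mem_center_iff'.1 (H64.SL2.mem_center_of_mul_self_eq_one h2F ht2) with e | e
      · rw [show t = 1 from Subtype.ext e, orderOf_one] at ht
        exact absurd ht (by norm_num)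
      · refine ⟨t, t.2, ?_⟩
        rw [e]
        change ((2 : ℕ) : F) * _ = 1 ∧ _ ∧ _ ∧ _ = ((2 : ℕ) : F)
        rw [h3]
        simp

section Count
variable {G : Type*} [Group G] [Finite G]

theorem count_aux {U X Z : Subgroup G} (hU : U ≤ 𝐂(U)) (hX : X ≤ U) {a : G} (ha : a ∈ 𝐍(U))
    (hmap : ∀ u ∈ X, a⁻¹ * u * a * u⁻¹ ∈ Z) (hinj : ∀ u ∈ X, u * a = a * u → u = 1) :
    Nat.card X ≤ Nat.card Z ∧
      (Nat.card Z ≤ Nat.card X → ∀ z ∈ Z, ∃ u ∈ X, z = a⁻¹ * u * a * u⁻¹) := by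
  let δ : X → Z := fun u => ⟨a⁻¹ * u * a * (u : G)⁻¹, hmap u u.2⟩
  have hδ : Function.Injective δ := by
    intro u v e
    have e' : a⁻¹ * u * a * (u : G)⁻¹ = a⁻¹ * v * a * (v : G)⁻¹ := congrArg Subtype.val e
    have hc := mem_centralizer_iff_commute.1 (hU (hX (mul_mem (inv_mem u.2) v.2))) _
      (H69.conj_mem_of_mem_normalizer' ha (hX v.2))
    have := hinj _ (mul_mem (inv_mem v.2) u.2) (by
      have h1 : a⁻¹ * u * a = a⁻¹ * v * a * ((v : G)⁻¹ * u) := by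
        rw [← mul_assoc, ← e', inv_mul_cancel_right]
      calc (v : G)⁻¹ * u * a = a * ((a⁻¹ * v * a)⁻¹ * (a⁻¹ * u * a)) := by group
        _ = a * ((v : G)⁻¹ * u) := by rw [h1, inv_mul_cancel_left])
    exact Subtype.ext (inv_mul_eq_one.1 this).symm
  refine ⟨Nat.card_le_card_of_injective δ hδ, fun hc z hz => ?_⟩
  obtain ⟨u, e⟩ := (hδ.bijective_of_nat_card_le hc).2 ⟨z, hz⟩
  exact ⟨u, u.2, (congrArg Subtype.val e).symm⟩

end Count

theorem pair {G : Type*} [Group G] [Finite G] (hp2 : p ≠ 2) {μ : ZMod p} (h0 : μ ≠ 0)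
    {U U₁ U₂ Y : Subgroup G} (hU : IsElementaryAbelian p U) (h1U : U₁ ≤ U) (h2U : U₂ ≤ U) {a b : G}
    (ha : a ∈ 𝐍(U)) (hb : b ∈ 𝐍(U)) (ha1 : a ∈ 𝐂(U₁)) (hb2 : b ∈ 𝐂(U₂))
    (hca : ⁅U, zpowers a⁆ ≤ U₁) (hcb : ⁅U, zpowers b⁆ ≤ U₂)
    (hia : ∀ u ∈ U₂, u * a = a * u → u = 1) (hib : ∀ u ∈ U₁, u * b = b * u → u = 1)
    (hY : Y ≤ U₁) (hY0 : Y ≠ ⊥) :
    ∃ h : G, U₁ ⊓ U₁ ^ᶜ h ≠ ⊥ ∧ (h ∈ 𝐍(Y) → Eig μ.val h Y) ∧
      ∀ K : Subgroup G, U ≤ K → a ∈ K → h ∈ K → Phi μ K := by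
  classical
  have hUc : U ≤ 𝐂(U) := EA.le_centralizer hU
  set L : Subgroup G := closure {a, b} with hLd
  have haL : a ∈ L := subset_closure (by simp)
  have hbL : b ∈ L := subset_closure (by simp)
  have hLU : L ≤ 𝐍(U) := by
    rw [hLd, closure_le]
    rintro _ (rfl | rfl)
    exacts [ha, hb]
  have hL' : L ≤ 𝐍(U₁ ⊔ U₂) := by
    rw [hLd, closure_le]
    rintro _ (rfl | rfl)
    · exact zpowers_le.1 (le_normalizer_of_commutator_le_left
        ((commutator_mono (sup_le h1U h2U) le_rfl).trans (hca.trans le_sup_left)))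
    · exact zpowers_le.1 (le_normalizer_of_commutator_le_left
        ((commutator_mono (sup_le h1U h2U) le_rfl).trans (hcb.trans le_sup_right)))
  set N : Subgroup G := ncl Y L with hNd
  have hL : L ≤ 𝐍(N) := le_normalizer_ncl Y L
  have hN' : N ≤ U₁ ⊔ U₂ := ncl_le (hY.trans le_sup_left) hL'
  have hNU : N ≤ U := hN'.trans (sup_le h1U h2U)
  have hYN : Y ≤ N := le_ncl Y L
  have hN : IsElementaryAbelian p N := EA.mono hU hNU
  have hcomm : ∀ g ∈ L, ∀ u ∈ N, g⁻¹ * u * g * u⁻¹ ∈ N ⊓ ⁅U, zpowers g⁆ := fun g hg u hu => by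
    refine mem_inf.2 ⟨mul_mem (H69.conj_mem_of_mem_normalizer' (hL hg) hu) (inv_mem hu), ?_⟩
    have : ⁅g⁻¹, u⁆ ∈ ⁅zpowers g, U⁆ :=
      commutator_mem_commutator (inv_mem (mem_zpowers g)) (hNU hu)
    rwa [commutatorElement_def, inv_inv, commutator_comm] at this
  have hδa : ∀ u ∈ N, a⁻¹ * u * a * u⁻¹ ∈ N ⊓ U₁ := fun u hu =>
    ⟨(hcomm a haL u hu).1, hca (hcomm a haL u hu).2⟩
  have hδb : ∀ u ∈ N, b⁻¹ * u * b * u⁻¹ ∈ N ⊓ U₂ := fun u hu =>
    ⟨(hcomm b hbL u hu).1, hcb (hcomm b hbL u hu).2⟩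
  have c1 := count_aux (X := N ⊓ U₂) (Z := N ⊓ U₁) hUc (inf_le_left.trans hNU) ha
    (fun u hu => hδa u hu.1) fun u hu => hia u hu.2
  have c2 := count_aux (X := N ⊓ U₁) (Z := N ⊓ U₂) hUc (inf_le_left.trans hNU) hb
    (fun u hu => hδb u hu.1) fun u hu => hib u hu.2
  have hsurj := c1.2 c2.1
  have qa : ⁅⁅N, zpowers a⁆, zpowers a⁆ = ⊥ := by
    refine commutator_eq_bot_of_le_centralizer (((commutator_mono hNU le_rfl).trans hca).trans ?_)
    exact le_centralizer_iff.1 (zpowers_le.2 ha1)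
  have qb : ⁅⁅N, zpowers b⁆, zpowers b⁆ = ⊥ := by
    refine commutator_eq_bot_of_le_centralizer (((commutator_mono hNU le_rfl).trans hcb).trans ?_)
    exact le_centralizer_iff.1 (zpowers_le.2 hb2)
  let a' : L := ⟨a, haL⟩
  let b' : L := ⟨b, hbL⟩
  have hab : closure ({a', b'} : Set L) = ⊤ := closure_pair_subtype_eq_top hLd haL hbL
  obtain ⟨K, _, _, _, hs⟩ := exists_finite_field_splits p (orderOf (a' * b'))
  have := finite_dual K N
  obtain ⟨⟨v₀, hv₀⟩, hv₀'⟩ := ne_bot_iff_exists_ne_one.1 hY0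
  haveI : Nontrivial (Additive N →+ K) := by
    by_contra h
    rw [not_nontrivial_iff_subsingleton] at h
    have := eq_one_of_forall_addHom p K hN ⟨v₀, hYN hv₀⟩ fun f => by
      rw [Subsingleton.elim f 0]; rfl
    exact hv₀' (Subtype.ext (show v₀ = 1 from congrArg Subtype.val this))
  let σ : L → N → N := fun h u => ⟨(h : G)⁻¹ * u * h, H69.conj_mem_of_mem_normalizer' (hL h.2) u.2⟩
  have hσ : ∀ (h : L) (f : Additive N →+ K) (u : N),
      dualRep K N L hL h f (Additive.ofMul u) = f (Additive.ofMul (σ h u)) :=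
    fun h f u => dualRep_apply K N L hL h f u
  have hker : ∀ F : Set (Additive N →+ K), (∀ h, ∀ f ∈ F, dualRep K N L hL h f ∈ F) →
      (∀ f ∈ F, ∀ u : N, (u : G) ∈ Y → f (Additive.ofMul u) = 0) → ∀ f ∈ F, f = 0 := by
    intro F hF hF0 f₀ hf₀
    let Z : Subgroup N :=
      { carrier := {u | ∀ f ∈ F, f (Additive.ofMul u) = 0}
        one_mem' := fun f _ => map_zero f
        mul_mem' := fun {c d} h1 h2 f hf => by rw [ofMul_mul, map_add, h1 f hf, h2 f hf, add_zero]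
        inv_mem' := fun {c} h1 f hf => by rw [ofMul_inv, map_neg, h1 f hf, neg_zero] }
    have h1 : ncl Y L ≤ Z.map N.subtype := by
      refine ncl_le (fun y hy => ⟨⟨y, hYN hy⟩, fun f hf => hF0 f hf _ hy, rfl⟩)
        (le_normalizer_of_cj_le fun g hg z hz => ?_)
      obtain ⟨_, ⟨w, hw, rfl⟩, rfl⟩ := mem_cj'.1 hz
      refine ⟨σ ⟨g, hg⟩⁻¹ w, fun f hf => ?_, by simp [σ]⟩
      rw [← hσ]
      exact hw _ (hF _ f hf)
    refine AddMonoidHom.ext fun z => ?_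
    obtain ⟨w, hw, e⟩ := h1 z.toMul.2
    obtain rfl : w = z.toMul := Subtype.ext e
    exact hw f₀ hf₀
  have hYa : ∀ u : N, (u : G) ∈ U₁ → ∃ w : N, u = σ a' w * w⁻¹ := fun u hu => by
    obtain ⟨w, hw, e⟩ := hsurj u ⟨u.2, hu⟩
    exact ⟨⟨w, hw.1⟩, Subtype.ext e⟩
  rcases exists_natural_of_quadratic a' b' hab (orderOf_pos (a' * b')).ne' (pow_orderOf_eq_one _)
    hs (dualRep K N L hL) (dualRep_quadratic K hL a' qa) (dualRep_quadratic K hL b' qb) with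
    ⟨f, hf0, hf⟩ | ⟨c, φ, ψ, hc0, hφa, hφb, hψ, hρ⟩
  · refine absurd (hker {f} (by rintro h _ rfl; exact hf h) ?_ f rfl) hf0
    rintro _ rfl u hu
    obtain ⟨w, rfl⟩ := hYa u (hY hu)
    rw [ofMul_mul, map_add, ofMul_inv, map_neg, ← hσ, hf, add_neg_cancel]
  let θ : N → Fin 2 → K := fun u i => ψ (Pi.single i 1) (Additive.ofMul u)
  have hψθ : ∀ (v : Fin 2 → K) (u : N), ψ v (Additive.ofMul u) = θ u ⬝ᵥ v := by
    intro v u
    have : v = v 0 • Pi.single 0 1 + v 1 • Pi.single 1 1 := by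
      ext i; fin_cases i <;> simp
    conv_lhs => rw [this, map_add, map_smul, map_smul]
    simp [θ, dotProduct, Fin.sum_univ_two, mul_comm]
  have hθσ : ∀ (h : L) (u : N) (i : Fin 2),
      θ (σ h u) i = θ u 0 * φ h 0 i + θ u 1 * φ h 1 i := by
    intro h u i
    change ψ _ _ = _
    rw [← hσ, hρ, hψθ, Matrix.dotProduct_mulVec, dotProduct_single, mul_one]
    simp [Matrix.vecMul, dotProduct, Fin.sum_univ_two]
  have hθmul : ∀ (u w : N) (i : Fin 2), θ (u * w) i = θ u i + θ w i := fun u w i => by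
    simp [θ, ofMul_mul]
  have hθinv : ∀ (u : N) (i : Fin 2), θ u⁻¹ i = -θ u i := fun u i => by
    simp [θ, ofMul_inv]
  have hθa0 : ∀ u : N, θ (σ a' u) 0 = θ u 0 := fun u => by rw [hθσ, hφa]; simp
  have hθa1 : ∀ u : N, θ (σ a' u) 1 = θ u 1 + c * θ u 0 := fun u => by
    rw [hθσ, hφa]; simp [add_comm, mul_comm]
  have hθ1 : ∀ u : N, (u : G) ∈ U₁ → θ u 0 = 0 := fun u hu => by
    obtain ⟨w, rfl⟩ := hYa u hu
    rw [hθmul, hθinv, hθa0, add_neg_cancel]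
  obtain ⟨y, hy, hy1⟩ : ∃ y : N, (y : G) ∈ Y ∧ θ y 1 ≠ 0 := by
    by_contra hcon
    push Not at hcon
    have := hker (Set.range ψ) (by
      rintro h _ ⟨v, rfl⟩
      exact ⟨_, (hρ h v).symm⟩) (by
      rintro _ ⟨v, rfl⟩ u hu
      rw [hψθ]
      simp [dotProduct, Fin.sum_univ_two, hcon u hu, hθ1 u (hY hu)]) _ ⟨Pi.single 0 1, rfl⟩
    have := congrFun (hψ (this.trans (map_zero ψ).symm)) 0
    simp at this
  obtain ⟨_, ⟨h, rfl⟩, e1, e2, e3, e4⟩ := exists_diag hp2 hc0 (M := φ.range) ⟨a', hφa⟩ ⟨b', hφb⟩ h0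
  have hθh0 : ∀ u : N, (μ.val : K) * θ (σ h u) 0 = θ u 0 := fun u => by
    rw [hθσ, e3]
    linear_combination (θ u 0) * e1
  have hθh1 : ∀ u : N, θ (σ h u) 1 = μ.val * θ u 1 := fun u => by
    rw [hθσ, e2, e4]; ring
  -- extension of `θ` to `G`
  let Θ : G → Fin 2 → K := fun u => if hu : u ∈ N then θ ⟨u, hu⟩ else 0
  have hΘ : ∀ u : N, Θ u = θ u := fun u => dif_pos u.2
  have hΘσ : ∀ (g : L) (u : N), Θ ((g : G)⁻¹ * u * (g : G)⁻¹⁻¹) = θ (σ g u) := fun g u => by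
    rw [inv_inv]; exact hΘ (σ g u)
  have hΘmul : ∀ u ∈ N, ∀ w ∈ N, ∀ i, Θ (u * w) i = Θ u i + Θ w i := fun u hu w hw i => by
    have := hθmul ⟨u, hu⟩ ⟨w, hw⟩ i
    rwa [← hΘ, ← hΘ, ← hΘ] at this
  refine ⟨(h : G)⁻¹, fun hbot => ?_, fun hh => ?_, fun M hM haM hhM => ?_⟩
  · have hh : (h : G)⁻¹ ∈ 𝐍(N) := hL (inv_mem h.2)
    have c3 := count_aux (X := (N ⊓ U₁) ^ᶜ (h : G)⁻¹) (Z := N ⊓ U₁) hUc
      ((cj_le_of_mem_normalizer inf_le_left hh).trans hNU) ha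
      (fun u hu => hδa u (cj_le_of_mem_normalizer inf_le_left hh hu)) fun u hu hua => by
        obtain ⟨u₁, hu₁, u₂, hu₂, rfl⟩ := (mem_sup_of_le_normalizer_right
          (h1U.trans (le_normalizer_of_le_centralizer (hUc.trans (H69.centralizer_anti h2U))))).1
          (hN' (cj_le_of_mem_normalizer inf_le_left hh hu))
        have h3 := mem_centralizer_iff_commute.1 ha1 u₁ hu₁
        obtain rfl := hia u₂ hu₂ (by
          apply mul_left_cancel (a := u₁)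
          rw [← mul_assoc, hua, ← mul_assoc, ← mul_assoc, h3])
        rw [mul_one] at hu ⊢
        exact mem_bot.1 (hbot ▸ ⟨hu₁, cj_mono _ inf_le_right hu⟩)
    obtain ⟨u, hu, e⟩ := c3.2 (card_cj _ _).ge y ⟨y.2, hY hy⟩
    obtain ⟨w, hw, rfl⟩ := mem_cj'.1 hu
    have e' : y = σ a' (σ h ⟨w, hw.1⟩) * (σ h ⟨w, hw.1⟩)⁻¹ := Subtype.ext (by
      rw [e, inv_inv]; rfl)
    apply hy1
    have h3 := hθh0 ⟨w, hw.1⟩
    rw [hθ1 ⟨w, hw.1⟩ hw.2, mul_eq_zero] at h3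
    rcases h3 with h3 | h3
    · rw [h3, zero_mul] at e1
      exact absurd e1 zero_ne_one
    · rw [e', hθmul, hθinv, hθa1, h3]
      ring
  · refine eig_of_functional ((hY.trans h1U).trans (hUc.trans (H69.centralizer_anti (hY.trans h1U))))
      hh (fun u => Θ u 1) (fun u hu w hw => hΘmul u (hYN hu) w (hYN hw) 1)
      ⟨y, hy, by rwa [hΘ]⟩ fun w hw => ?_
    have := hθh1 ⟨w, hYN hw⟩
    rwa [← hΘσ, ← hΘ] at this
  · letI : Algebra (ZMod p) K := ZMod.algebra K p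
    obtain ⟨w, hw⟩ := hYa y (hY hy)
    have hw0 : c * θ w 0 ≠ 0 := fun e => hy1 (by rw [hw, hθmul, hθinv, hθa1, e]; ring)
    obtain ⟨t, ht⟩ : ∃ t : Module.Dual (ZMod p) K, t (c * θ w 0) ≠ 0 := by
      by_contra hcon
      push Not at hcon
      exact hw0 ((Module.forall_dual_apply_eq_zero_iff (ZMod p) _).1 hcon)
    have hμ : ∀ z : K, t (μ.val * z) = μ * t z := fun z => by
      rw [← nsmul_eq_mul, map_nsmul, nsmul_eq_mul, ZMod.natCast_zmod_val]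
    refine ⟨N, hNU.trans hM, EA.isPGroup hN, fun u => t (Θ u 1), fun u => t (c * Θ u 0),
      fun u hu v hv => ?_, fun u hu v hv => ?_, ⟨w, w.2, by dsimp only; rwa [hΘ]⟩, a⁻¹,
      ⟨M.inv_mem haM, hL (inv_mem haL)⟩, (h : G)⁻¹, ⟨hhM, hL (inv_mem h.2)⟩, fun v hv => ?_⟩
    · dsimp only
      rw [hΘmul u hu v hv, map_add]
    · dsimp only
      rw [hΘmul u hu v hv, mul_add, map_add]
    · dsimp only
      have k1 := hΘσ a' ⟨v, hv⟩
      have k2 := hΘσ h ⟨v, hv⟩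
      have k3 := hΘ ⟨v, hv⟩
      dsimp only [a'] at k1 k2 k3
      rw [k1, k2, k3, hθa0, hθa1, hθh1, map_add, hμ]
      refine ⟨rfl, rfl, rfl, ?_⟩
      rw [← hμ, mul_left_comm, hθh0]

end H59.ZF
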