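import Mathlib
import Cfsg.Agent.Base
import Cfsg.Agent.Lib.ZJF59.Pair
import Cfsg.Agent.Lib.Functor.Sect

/-!
The core lemma: a quadratic subgroup in a group generated by two of its conjugates.
-/

set_option autoImplicit false

namespace H59.ZF

open Subgroup Cfsg H69 H59 H24
open scoped commutatorElement

universe u

variable {p : ℕ} [hp : Fact p.Prime]

/-- The situation produced by the L-lemma. -/
structure LData (p : ℕ) {G : Type*} [Group G] (A B O Y L₀ : Subgroup G) : Prop where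
  nB : B.Normal
  nO : O.Normal
  pO : IsPGroup p O
  BO : B ≤ O
  quad : ⁅⁅B, A⁆, A⁆ = ⊥
  YB : Y ≤ B
  YA : Y ≤ 𝐂(A)
  YY : Y ≤ 𝐂(Y)
  le : A ⊔ O ≤ L₀
  ne : L₀ ≠ ⊤
  max : ∀ X : Subgroup G, A ⊔ O ≤ X → X ≠ ⊤ → X ≤ L₀
  gen : ∀ x, x ∉ L₀ → A ⊔ A ^ᶜ x ⊔ O = ⊤
  norm : L₀ ≤ 𝐍(Y)
  nn : ¬ Y.Normal

theorem LData.base {G : Type*} [Group G] [Finite G] (hp2 : p ≠ 2) {μ : ZMod p} (h0 : μ ≠ 0)
    {A B O Y L₀ : Subgroup G} (h : LData p A B O Y L₀) (hZ : B ⊓ center G = ⊥) :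
    (∃ g ∈ L₀, Eig μ.val g Y) ∧ Phi μ L₀ := by
  haveI := h.nB
  haveI := h.nO
  have hY0 : Y ≠ ⊥ := fun e => h.nn (e ▸ inferInstance)
  set U := omegaOne p (B ⊓ 𝐂(O)) with hUd
  have hUle : U ≤ B ⊓ 𝐂(O) := omegaOne_le _
  have hUB : U ≤ B := hUle.trans inf_le_left
  have hab : IsMulCommutative (B ⊓ 𝐂(O) : Subgroup G) := isMulCommutative_iff_mem.2
    fun a ha b hb => mem_centralizer_iff_commute.1 hb.2 a (h.BO ha.1)
  have hU : IsElementaryAbelian p U := omegaOne_isElementaryAbelian hab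
  haveI : U.Normal := omegaOne_normal _
  have hpY : IsPGroup p Y := h.pO.to_le (h.YB.trans h.BO)
  have hY2 : Y ⊓ U ≠ ⊥ := by
    obtain ⟨y, hy, ho⟩ := exists_orderOf_eq_prime (hpY.to_le inf_le_left)
      (inf_centralizer_ne_bot hpY h.pO ((le_sup_right.trans h.le).trans h.norm) hY0)
    intro e
    have : y ∈ Y ⊓ U := ⟨hy.1, mem_omegaOne ⟨h.YB hy.1, hy.2⟩ (ho ▸ pow_orderOf_eq_one y)⟩
    rw [e, mem_bot] at this
    rw [this, orderOf_one] at ho
    exact hp.out.one_lt.ne ho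
  have hcen : ∀ u ∈ U, centralizer {u} = ⊤ → u = 1 := fun u hu e =>
    mem_bot.1 (hZ ▸ ⟨hUB hu, mem_center_iff.2 fun g =>
      mem_centralizer_singleton_iff.1 (e ▸ mem_top g : g ∈ centralizer {u})⟩)
  have hOc : ∀ u ∈ U, O ≤ centralizer {u} := fun u hu g hg =>
    mem_centralizer_singleton_iff.2 (mem_centralizer_iff_commute.1 (hUle hu).2 g hg)
  have hAc : ∀ (C : Subgroup G) (u : G), u ∈ 𝐂(C) → C ≤ centralizer {u} := fun C u hu g hg =>
    mem_centralizer_singleton_iff.2 (mem_centralizer_iff_commute.1 hu g hg)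
  obtain ⟨x, hx⟩ : ∃ x, x ∉ L₀ := by
    by_contra hcon
    push Not at hcon
    exact h.ne (eq_top_iff.2 fun g _ => hcon g)
  have hle' : A ^ᶜ x ⊔ O ≤ L₀ ^ᶜ x := by
    rw [← cj_eq_of_normal O x, ← cj_sup]
    exact cj_mono x h.le
  obtain ⟨a, haA, ha⟩ : ∃ a ∈ A, a ∉ L₀ ^ᶜ x := by
    by_contra hcon
    push Not at hcon
    refine h.ne ((cj_eq_top_iff (g := x)).1 (eq_top_iff.2 ?_))
    rw [← h.gen x hx, sup_assoc]
    exact sup_le hcon hle'
  obtain ⟨b, hbA, hb⟩ : ∃ b ∈ A ^ᶜ x, b ∉ L₀ := by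
    by_contra hcon
    push Not at hcon
    refine h.ne (eq_top_iff.2 ?_)
    rw [← h.gen x hx]
    exact sup_le (sup_le (le_sup_left.trans h.le) hcon) (le_sup_right.trans h.le)
  have hq1 : ⁅B, A⁆ ≤ 𝐂(A) := le_centralizer_of_commutator_eq_bot h.quad
  have hq2 : ⁅B, A ^ᶜ x⁆ ≤ 𝐂(A ^ᶜ x) := by
    rw [← cj_eq_of_normal B x, ← cj_commutator, ← cj_centralizer]
    exact cj_mono x hq1
  obtain ⟨g, hg1, hg2, hg3⟩ := pair hp2 h0 (U₁ := U ⊓ 𝐂(A)) (U₂ := U ⊓ 𝐂(A ^ᶜ x)) (Y := Y ⊓ U) hU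
    inf_le_left inf_le_left (a := a) (b := b) (le_normalizer_of_normal (mem_top a))
    (le_normalizer_of_normal (mem_top b))
    (le_centralizer_iff.1 inf_le_right haA) (le_centralizer_iff.1 inf_le_right hbA)
    (le_inf (commutator_le_left _ _) ((commutator_mono hUB (zpowers_le.2 haA)).trans hq1))
    (le_inf (commutator_le_left _ _) ((commutator_mono hUB (zpowers_le.2 hbA)).trans hq2))
    (fun u hu e => hcen u hu.1 (by
      by_contra hne
      have h1 := h.max (centralizer {u} ^ᶜ x⁻¹) (by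
        rw [le_cj_iff, inv_inv, cj_sup, cj_eq_of_normal O x]
        exact sup_le (hAc _ u hu.2) (hOc u hu.1)) fun e => hne (cj_eq_top_iff.1 e)
      rw [cj_le_iff, inv_inv] at h1
      exact ha (h1 (mem_centralizer_singleton_iff.2 e.symm))))
    (fun u hu e => hcen u hu.1 (by
      by_contra hne
      exact hb (h.max _ (sup_le (hAc _ u hu.2) (hOc u hu.1)) hne
        (mem_centralizer_singleton_iff.2 e.symm))))
    (le_inf inf_le_right (inf_le_left.trans h.YA)) hY2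
  have hg : g ∈ L₀ := by
    by_contra hg
    apply hg1
    rw [eq_bot_iff]
    intro u hu
    refine mem_bot.2 (hcen u hu.1.1 (eq_top_iff.2 ?_))
    rw [← h.gen g hg]
    refine sup_le (sup_le (hAc _ u hu.1.2) (hAc _ u ?_)) (hOc u hu.1.1)
    rw [← cj_centralizer]
    exact cj_mono g inf_le_right hu.2
  refine ⟨⟨g, hg, (hg2 ?_).mono inf_le_left⟩, hg3 L₀ ((hUB.trans h.BO).trans
    (le_sup_right.trans h.le)) (h.le (mem_sup_left haA)) hg⟩
  exact le_normalizer_inf h.norm le_normalizer_of_normal hg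

omit hp in
theorem LData.map {G G' : Type*} [Group G] [Group G'] {A B O Y L₀ : Subgroup G}
    (h : LData p A B O Y L₀) (π : G →* G') (hπ : Function.Surjective π) (hk : π.ker ≤ B ⊓ center G) :
    LData p (A.map π) (B.map π) (O.map π) (Y.map π) (L₀.map π) := by
  haveI := h.nB
  haveI := h.nO
  have hkL : π.ker ≤ L₀ := (hk.trans inf_le_left).trans (h.BO.trans (le_sup_right.trans h.le))
  have hL : (L₀.map π).comap π = L₀ := comap_map_eq_self hkL
  refine ⟨h.nB.map π hπ, h.nO.map π hπ, h.pO.map π, map_mono h.BO, ?_, map_mono h.YB,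
    map_le_centralizer_map π h.YA, map_le_centralizer_map π h.YY, ?_, fun e => h.ne ?_,
    fun X hX hne => ?_, fun x hx => ?_, ?_, fun hn => h.nn ?_⟩
  · rw [← map_commutator, ← map_commutator, h.quad, Subgroup.map_bot]
  · rw [← Subgroup.map_sup]
    exact map_mono h.le
  · rw [← hL, e, comap_top]
  · rw [← map_comap_eq_self_of_surjective hπ X]
    refine map_mono (h.max _ ?_ fun e => hne ?_)
    · rwa [← map_le_iff_le_comap, Subgroup.map_sup]
    · rw [← map_comap_eq_self_of_surjective hπ X, e, map_top_of_surjective π hπ]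
  · obtain ⟨x, rfl⟩ := hπ x
    rw [← map_cj, ← Subgroup.map_sup, ← Subgroup.map_sup,
      h.gen x fun e => hx (mem_map_of_mem π e), map_top_of_surjective π hπ]
  · rintro _ ⟨g, hg, rfl⟩
    exact map_mem_normalizer_map π (h.norm hg)
  · obtain ⟨x, hx⟩ : ∃ x, x ∉ L₀ := by
      by_contra hcon
      push Not at hcon
      exact h.ne (eq_top_iff.2 fun g _ => hcon g)
    haveI : (Y ⊔ π.ker).Normal := by
      rw [← comap_map_eq]
      exact hn.comap π
    have h1 : A ≤ 𝐂(Y ⊔ π.ker) := by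
      rw [H69.centralizer_sup]
      refine le_inf (le_centralizer_iff.1 h.YA) fun a _ => ?_
      exact mem_centralizer_iff_commute.2 fun z hz => (mem_center_iff.1 (hk hz).2 a).symm
    have h2 : A ^ᶜ x ≤ 𝐂(Y ⊔ π.ker) := cj_le_of_mem_normalizer h1 (le_normalizer_of_normal (mem_top x))
    have h3 : 𝐂(Y ⊔ π.ker) ≤ 𝐍(Y) :=
      le_normalizer_of_le_centralizer (H69.centralizer_anti le_sup_left)
    rw [normal_iff_top_le_normalizer, ← h.gen x hx]
    exact sup_le (sup_le (h1.trans h3) (h2.trans h3)) ((le_sup_right.trans h.le).trans h.norm)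

theorem LData.concl_aux (hp2 : p ≠ 2) {μ : ZMod p} (h0 : μ ≠ 0) (n : ℕ) :
    ∀ (G : Type u) [Group G] [Finite G], Nat.card G = n → ∀ {A B O Y L₀ : Subgroup G},
      LData p A B O Y L₀ → (∃ g ∈ L₀, Eig μ.val g Y) ∧ Phi μ L₀ := by
  induction n using Nat.strong_induction_on with
  | _ n ih =>
  intro G _ _ hn A B O Y L₀ h
  by_cases hZ : B ⊓ center G = ⊥
  · exact h.base hp2 h0 hZ
  haveI := h.nB
  let π := QuotientGroup.mk' (B ⊓ center G)
  obtain ⟨⟨_, ⟨g, hg, rfl⟩, he⟩, hΦ⟩ := ih _ (hn ▸ card_quotient_lt hZ) _ rfl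
    (h.map π (QuotientGroup.mk'_surjective _) (QuotientGroup.ker_mk' _).le)
  exact ⟨⟨g, hg, he.comap h.YY (h.norm hg) π⟩, hΦ.comap π⟩

theorem LData.concl {G : Type*} [Group G] [Finite G] (hp2 : p ≠ 2) {μ : ZMod p} (h0 : μ ≠ 0)
    {A B O Y L₀ : Subgroup G} (h : LData p A B O Y L₀) :
    (∃ g ∈ L₀, Eig μ.val g Y) ∧ Phi μ L₀ :=
  LData.concl_aux hp2 h0 _ G rfl h

end H59.ZF
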