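import Mathlib
import Cfsg.Agent.Base
import Cfsg.Agent.Lib.ZJF59.Phi

/-!
Recognition of `F(p)` as a section, and of a subgroup of order `p` with full automizer.
-/

set_option autoImplicit false

namespace H59.ZF

open Subgroup Cfsg H69 H59 H58.Qd
open scoped commutatorElement MatrixGroups

theorem mem_fOver {K : Type*} [Field K] (M : SL(3, K)) :
    M ∈ fOver K ↔ M.1 1 0 = 0 ∧ M.1 2 0 = 0 ∧ M.1 2 1 = 0 ∧ M.1 2 2 = 1 := by
  let D : Subgroup SL(3, K) :=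
    { carrier := {M | M.1 1 0 = 0 ∧ M.1 2 0 = 0 ∧ M.1 2 1 = 0 ∧ M.1 2 2 = 1}
      one_mem' := by simp
      mul_mem' := fun {a b} ha hb => by
        obtain ⟨a1, a2, a3, a4⟩ := ha
        obtain ⟨b1, b2, b3, b4⟩ := hb
        simp only [Set.mem_ofPred_eq, Matrix.SpecialLinearGroup.coe_mul, Matrix.mul_apply,
          Fin.sum_univ_three, a1, a2, a3, a4, b1, b2, b3, b4]
        simp
      inv_mem' := fun {a} ha => by
        obtain ⟨a1, a2, a3, a4⟩ := ha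
        have hd := a.2
        rw [Matrix.det_fin_three, a1, a2, a3, a4] at hd
        simp only [Set.mem_ofPred_eq, Matrix.SpecialLinearGroup.coe_inv, Matrix.adjugate_fin_three,
          a1, a2, a3, a4]
        simp
        linear_combination hd }
  have : fOver K = D := closure_eq D
  rw [this]
  rfl

variable {p : ℕ} [hp : Fact p.Prime]

theorem fOver_le_qd : fOver (ZMod p) ≤ qd p := fun M hM =>
  (mem_qd_iff M).2 ((mem_fOver M).1 hM).2

theorem aff_mem_fOver {a b c d x y : ZMod p} {h : a * d - b * c = 1} :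
    aff a b c d x y h ∈ (fOver (ZMod p)).subgroupOf (qd p) ↔ c = 0 := by
  rw [mem_subgroupOf, mem_fOver]
  simp [aff]

theorem dg_pow {μ : ZMod p} (h0 : μ ≠ 0) (k : ℕ) : dg μ h0 ^ k = dg (μ ^ k) (pow_ne_zero k h0) := by
  induction k with
  | zero => simp only [pow_zero, dg, one_eq_aff, aff_inj]; simp
  | succ k ih =>
    rw [pow_succ, ih]
    simp only [dg, aff_mul, aff_inj, pow_succ]
    simp [mul_comm]

theorem involves_of_phi_top {G : Type*} [Group G] [Finite G] (hp2 : p ≠ 2) {μ : ZMod p}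
    (h0 : μ ≠ 0) (hμ : ∀ s : ZMod p, s ≠ 0 → ∃ k : ℕ, μ ^ k = s) (h : Phi μ (⊤ : Subgroup G)) :
    Involves (fOver (ZMod p)) G := by
  classical
  obtain ⟨W, -, hW, f, g, hf, hg, ⟨v₀, hv₀, hne⟩, x, hx, y, hy, H⟩ := h
  have hf1 : f 1 = 0 := by simpa using hf 1 W.one_mem 1 W.one_mem
  have hg1 : g 1 = 0 := by simpa using hg 1 W.one_mem 1 W.one_mem
  have hfi : ∀ v ∈ W, f v⁻¹ = -f v := fun v hv => by
    have := hf v hv v⁻¹ (inv_mem hv)
    rw [mul_inv_cancel, hf1] at this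
    linear_combination -this
  have hgi : ∀ v ∈ W, g v⁻¹ = -g v := fun v hv => by
    have := hg v hv v⁻¹ (inv_mem hv)
    rw [mul_inv_cancel, hg1] at this
    linear_combination -this
  let Δ₁ : Subgroup (G × qd p) :=
    { carrier := {z | z.1 ∈ W ∧ z.2 = tr (f z.1) (g z.1)}
      one_mem' := ⟨W.one_mem, by simp [hf1, hg1, tr_zero]⟩
      mul_mem' := fun {a b} ha hb => ⟨mul_mem ha.1 hb.1, by
        rw [Prod.snd_mul, Prod.fst_mul, ha.2, hb.2, tr_mul, hf _ ha.1 _ hb.1, hg _ ha.1 _ hb.1]⟩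
      inv_mem' := fun {a} ha => ⟨inv_mem ha.1, by
        rw [Prod.snd_inv, Prod.fst_inv, ha.2, tr_inv, hfi _ ha.1, hgi _ ha.1]⟩ }
  have hΔ₁ : ∀ z : G × qd p, z ∈ Δ₁ ↔ z.1 ∈ W ∧ z.2 = tr (f z.1) (g z.1) := fun z => Iff.rfl
  have hN : ∀ z : G × qd p, z ∈ 𝐍(Δ₁) → ∀ v ∈ W, z.1 * v * z.1⁻¹ ∈ W ∧
      z.2 * tr (f v) (g v) * z.2⁻¹ = tr (f (z.1 * v * z.1⁻¹)) (g (z.1 * v * z.1⁻¹)) :=
    fun z hz v hv =>
      (hΔ₁ _).1 (conj_mem_of_mem_normalizer hz ((hΔ₁ (v, tr (f v) (g v))).2 ⟨hv, rfl⟩))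
  have hxN : (x, tv 1) ∈ 𝐍(Δ₁) := by
    refine mem_normalizer_of_cj_le fun z hz => ?_
    obtain ⟨⟨v, w⟩, ⟨hv, e⟩, rfl⟩ := mem_cj'.1 hz
    dsimp only at hv e
    subst e
    refine (hΔ₁ _).2 ⟨conj_mem_of_mem_normalizer hx.2 hv, ?_⟩
    change tv 1 * tr _ _ * (tv 1)⁻¹ = tr (f (x * v * x⁻¹)) (g (x * v * x⁻¹))
    rw [tv, conj_tr, (H v hv).1, (H v hv).2.1]; simp
  have hyN : (y, dg μ h0) ∈ 𝐍(Δ₁) := by
    refine mem_normalizer_of_cj_le fun z hz => ?_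
    obtain ⟨⟨v, w⟩, ⟨hv, e⟩, rfl⟩ := mem_cj'.1 hz
    dsimp only at hv e
    subst e
    refine (hΔ₁ _).2 ⟨conj_mem_of_mem_normalizer hy.2 hv, ?_⟩
    change dg μ h0 * tr _ _ * (dg μ h0)⁻¹ = tr (f (y * v * y⁻¹)) (g (y * v * y⁻¹))
    rw [dg, conj_tr, (H v hv).2.2.1, ← (H v hv).2.2.2]
    simp [h0]
  let π := MonoidHom.snd G (qd p)
  -- the translations are all hit
  have hV : V p ≤ Δ₁.map π := by
    have hpow : ∀ (z : qd p) (k : ℕ), z ∈ Δ₁.map π → z ^ k ∈ Δ₁.map π := fun z k hz => pow_mem hz k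
    have h1 : tr (g v₀) 0 ∈ Δ₁.map π := by
      refine ⟨(x * v₀ * x⁻¹ * v₀⁻¹, tr (g v₀) 0), ⟨mul_mem (conj_mem_of_mem_normalizer hx.2 hv₀)
        (inv_mem hv₀), ?_⟩, rfl⟩
      dsimp only
      rw [hf _ (conj_mem_of_mem_normalizer hx.2 hv₀) _ (inv_mem hv₀),
        hg _ (conj_mem_of_mem_normalizer hx.2 hv₀) _ (inv_mem hv₀), (H v₀ hv₀).1, (H v₀ hv₀).2.1,
        hfi _ hv₀, hgi _ hv₀]
      simp
    have h2 : ∀ s : ZMod p, tr s 0 ∈ Δ₁.map π := fun s => by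
      have := hpow _ (s * (g v₀)⁻¹).val h1
      rwa [tr_pow, ZMod.natCast_zmod_val, mul_zero, inv_mul_cancel_right₀ hne] at this
    have h3 : tr 0 (g v₀) ∈ Δ₁.map π := by
      have := mul_mem (h2 (-f v₀)) (show tr (f v₀) (g v₀) ∈ Δ₁.map π from
        ⟨(v₀, tr (f v₀) (g v₀)), ⟨hv₀, rfl⟩, rfl⟩)
      rwa [tr_mul, neg_add_cancel, zero_add] at this
    refine V_le (h2 1) ?_
    have := hpow _ (-1 * (g v₀)⁻¹).val h3
    rwa [tr_pow, ZMod.natCast_zmod_val, mul_zero, inv_mul_cancel_right₀ hne] at this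
  let Fq : Subgroup (qd p) := (fOver (ZMod p)).subgroupOf (qd p)
  let Bk : Subgroup (qd p) := blk p ⊓ Fq
  let Γ : Subgroup (G × qd p) := 𝐍(Δ₁) ⊓ Bk.comap π
  have hΓ : Bk ≤ Γ.map π := by
    rintro z ⟨hz1, hz2⟩
    obtain ⟨a, b, c, d, h, rfl⟩ := mem_blk.1 hz1
    obtain rfl : c = 0 := aff_mem_fOver.1 hz2
    have ha : a ≠ 0 := by rintro rfl; simp at h
    obtain ⟨k, rfl⟩ := hμ a ha
    have m1 : tv 1 ∈ Γ.map π :=
      ⟨_, ⟨hxN, tv_mem_blk 1, (aff_mem_fOver (h := by simp)).2 rfl⟩, rfl⟩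
    have m2 : dg μ h0 ∈ Γ.map π :=
      ⟨_, ⟨hyN, aff_mem_blk (by simp [h0]), (aff_mem_fOver (h := by simp [h0])).2 rfl⟩, rfl⟩
    have := mul_mem (pow_mem m2 k) (pow_mem m1 (b * d).val)
    rw [tv_one_pow_val, dg_pow] at this
    convert this using 1
    simp only [dg, tv, aff_mul, aff_inj]
    have hd : d = (μ ^ k)⁻¹ := eq_inv_of_mul_eq_one_right (by simpa using h)
    refine ⟨by simp, ?_, by simp, by simp [hd], by simp, by simp⟩
    linear_combination (-b) * h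
  have hci_mem : ci p ∈ Bk := ⟨ci_mem_blk, (aff_mem_fOver (h := by simp)).2 rfl⟩
  let R : Subgroup (G × qd p) := Γ ⊓ (zpowers (ci p)).comap π
  have hR : Γ ≤ 𝐍(R) := by
    refine le_normalizer_inf le_normalizer fun z hz => ?_
    rw [← cj_eq_self_iff, comap_cj, cj_eq_of_mem_centralizer (blk_le_centralizer_ci hz.2.1)]
  haveI : Fact (Nat.Prime 2) := ⟨Nat.prime_two⟩
  obtain ⟨T, hT⟩ := exists_isSylowIn 2 R
  have hci : IsPGroup 2 (zpowers (ci p)) := by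
    refine isPGroup_iff_mem.2 ?_
    rintro _ ⟨k, rfl⟩
    refine ⟨1, ?_⟩
    rw [pow_one, ← zpow_natCast, ← zpow_mul, mul_comm, zpow_mul, zpow_natCast, sq, ci_mul_self,
      one_zpow]
  have hTπ : zpowers (ci p) ≤ T.map π := by
    have h3 : R.map π = zpowers (ci p) := by
      refine le_antisymm (map_le_iff_le_comap.2 inf_le_right) (zpowers_le.2 ?_)
      obtain ⟨z, hz, e⟩ := hΓ hci_mem
      exact ⟨z, ⟨hz, by change π z ∈ zpowers (ci p); rw [e]; exact mem_zpowers _⟩, e⟩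
    have h4 := hT.map π
    rw [h3] at h4
    exact (h4.max _ h4.le le_rfl hci).le
  obtain ⟨t, ht, hte⟩ := hTπ (mem_zpowers _)
  have htΓ : t ∈ Γ := (hT.le ht).1
  let Δ₂ : Subgroup (G × qd p) := Γ ⊓ 𝐍(T)
  have hΔ₂ : Bk ≤ Δ₂.map π := by
    refine hΓ.trans ?_
    rw [← hT.frattini_sup inf_le_left hR, Subgroup.map_sup]
    refine sup_le (le_trans ?_ (hTπ.trans (map_mono ?_))) le_rfl
    · exact map_le_iff_le_comap.2 inf_le_right
    · exact le_inf (hT.le.trans inf_le_left) le_normalizer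
  let Δ := Δ₁ ⊔ Δ₂
  have hΔF : Δ.map π = Fq := by
    refine le_antisymm ?_ fun z hz => ?_
    · rw [Subgroup.map_sup]
      refine sup_le ?_ ?_
      · rintro _ ⟨z, hz, rfl⟩
        change z.2 ∈ Fq
        rw [hz.2]
        exact (aff_mem_fOver (h := by simp)).2 rfl
      · rintro _ ⟨z, hz, rfl⟩
        exact hz.1.2.2
    · obtain ⟨a, b, c, d, u, w, h, rfl⟩ := exists_aff z
      rw [aff_eq_tr_mul, Subgroup.map_sup]
      exact mul_mem (mem_sup_left (hV (tr_mem_V _ _)))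
        (mem_sup_right (hΔ₂ ⟨aff_mem_blk _, aff_mem_fOver.2 (aff_mem_fOver.1 hz)⟩))
  have hfst : Function.Injective ((MonoidHom.fst G (qd p)).comp Δ.subtype) := by
    rw [injective_iff_map_eq_one]
    rintro ⟨z, hz⟩ hz1
    change z.1 = 1 at hz1
    obtain ⟨⟨v, d⟩, ⟨hv, hd⟩, n, hn, rfl⟩ := (mem_sup_of_le_normalizer_left
      (inf_le_left.trans inf_le_left)).1 hz
    dsimp only at hv hd
    subst hd
    have hn1 : n.1 = v⁻¹ := by
      rw [eq_inv_iff_mul_eq_one, mul_eq_one_comm]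
      exact hz1
    have hn2 : n.2 = 1 := by
      refine eq_one_of_mem_V_of_mem_blk (centralizer_V_le ?_) hn.1.2.1
      rw [mem_centralizer_iff_commute]
      intro w hw
      obtain ⟨⟨u, w'⟩, ⟨hu, e⟩, rfl⟩ := hV hw
      dsimp only at hu e
      subst e
      have e2 := (hN n hn.1.1 u hu).2
      rw [hn1, inv_inv, hf _ (mul_mem (inv_mem hv) hu) _ hv, hf _ (inv_mem hv) _ hu,
        hg _ (mul_mem (inv_mem hv) hu) _ hv, hg _ (inv_mem hv) _ hu, hfi _ hv, hgi _ hv,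
        neg_add_cancel_comm, neg_add_cancel_comm] at e2
      exact (eq_mul_inv_iff_mul_eq.1 e2.symm)
    obtain ⟨e1, e2⟩ := hN t htΓ.1 v hv
    have hw : f (t.1 * v * t.1⁻¹) = -f v ∧ g (t.1 * v * t.1⁻¹) = -g v := by
      rw [← tr_inj, ← e2, ← tr_inv]
      change π t * _ * (π t)⁻¹ = _
      rw [hte]
      exact ci_conj (tr_mem_V _ _)
    have h5 : n * t * n⁻¹ * t⁻¹ ∈ T := mul_mem (conj_mem_of_mem_normalizer hn.2 ht) (inv_mem ht)
    obtain ⟨k, hk⟩ := isPGroup_iff_mem.1 hT.isP _ h5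
    have h6 : (n * t * n⁻¹ * t⁻¹).1 = v⁻¹ * (t.1 * v * t.1⁻¹) := by
      simp only [Prod.fst_mul, Prod.fst_inv]
      rw [hn1, inv_inv]
      simp only [mul_assoc]
    have h7 : (v⁻¹ * (t.1 * v * t.1⁻¹)) ^ 2 ^ k = 1 := by
      rw [← h6]
      exact congrArg Prod.fst hk
    obtain ⟨j, hj⟩ := isPGroup_iff_mem.1 hW _ (mul_mem (inv_mem hv) e1)
    have h8 : v⁻¹ * (t.1 * v * t.1⁻¹) = 1 := by
      have hc : Nat.Coprime (2 ^ k) (p ^ j) :=
        Nat.Coprime.pow _ _ ((Nat.coprime_primes Nat.prime_two hp.out).2 (Ne.symm hp2))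
      rw [← orderOf_eq_one_iff]
      exact Nat.eq_one_of_dvd_coprimes hc (orderOf_dvd_of_pow_eq_one h7)
        (orderOf_dvd_of_pow_eq_one hj)
    have h9 : t.1 * v * t.1⁻¹ = v := (inv_mul_eq_one.1 h8).symm
    rw [h9] at hw
    have h2 := two_ne_zero_zmod hp2
    have ha : f v = 0 := by
      refine (mul_eq_zero.1 (?_ : (2 : ZMod p) * f v = 0)).resolve_left h2
      linear_combination hw.1
    have hb : g v = 0 := by
      refine (mul_eq_zero.1 (?_ : (2 : ZMod p) * g v = 0)).resolve_left h2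
      linear_combination hw.2
    apply Subtype.ext
    refine Prod.ext hz1 ?_
    change tr (f v) (g v) * n.2 = 1
    rw [hn2, ha, hb, tr_zero, mul_one]
  have hsurj : Function.Surjective (π.subgroupMap Δ) := π.subgroupMap_surjective Δ
  refine H57.involves_trans (Y := Δ) ?_ (H57.involves_of_surjective _
    (MonoidHom.ofInjective hfst).symm.toMonoidHom (MulEquiv.surjective _))
  let e : Δ.map π ≃* fOver (ZMod p) :=
    (MulEquiv.subgroupCongr hΔF).trans (subgroupOfEquivOfLe fOver_le_qd)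
  exact H57.involves_of_surjective ⊤ ((e.toMonoidHom.comp (π.subgroupMap Δ)).comp
    (⊤ : Subgroup Δ).subtype) ((e.surjective.comp hsurj).comp topEquiv.surjective)

theorem involves_of_phi {G : Type*} [Group G] [Finite G] (hp2 : p ≠ 2) {μ : ZMod p}
    (h0 : μ ≠ 0) (hμ : ∀ s : ZMod p, s ≠ 0 → ∃ k : ℕ, μ ^ k = s) {K : Subgroup G} (h : Phi μ K) :
    Involves (fOver (ZMod p)) K :=
  involves_of_phi_top hp2 h0 hμ (Phi.comap K.subtype (by rwa [map_subtype_top]))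

theorem exists_primitive (p : ℕ) [Fact p.Prime] :
    ∃ μ : ZMod p, μ ≠ 0 ∧ ∀ s : ZMod p, s ≠ 0 → ∃ k : ℕ, μ ^ k = s := by
  obtain ⟨g, hg⟩ := IsCyclic.exists_monoid_generator (α := (ZMod p)ˣ)
  refine ⟨g, g.ne_zero, fun s hs => ?_⟩
  obtain ⟨k, hk⟩ := hg (Units.mk0 s hs)
  exact ⟨k, by simpa using congrArg Units.val hk⟩

theorem exists_full_automizer {G : Type*} [Group G] [Finite G] {μ : ZMod p}
    (hμ : ∀ s : ZMod p, s ≠ 0 → ∃ k : ℕ, μ ^ k = s) {H W : Subgroup G} (hW : IsPGroup p W)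
    {h : G} (hh : h ∈ H) (he : Eig μ.val h W) :
    ∃ C : Subgroup G, C ≤ W ∧ Nat.card C = p ∧ (H ⊓ 𝐂(C)).relIndex (H ⊓ 𝐍(C)) = p - 1 := by
  obtain ⟨c₀, hc₀, hne, e₀⟩ := he
  obtain ⟨c, hc, hord⟩ := exists_orderOf_eq_prime (R := zpowers c₀)
    (hW.to_le (zpowers_le.2 hc₀)) (by simpa using hne)
  have e : h * c * h⁻¹ = c ^ μ.val := by
    obtain ⟨k, rfl⟩ := hc
    dsimp only
    rw [← conj_zpow, e₀, ← zpow_natCast, ← zpow_natCast, ← zpow_mul, ← zpow_mul, mul_comm]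
  have hcp : c ^ p = 1 := hord ▸ pow_orderOf_eq_one c
  have ek : ∀ k : ℕ, h ^ k * c * (h ^ k)⁻¹ = c ^ (μ ^ k).val := by
    intro k
    induction k with
    | zero =>
      haveI : Fact (1 < p) := ⟨hp.out.one_lt⟩
      simp [ZMod.val_one]
    | succ k ih =>
      rw [pow_succ', mul_inv_rev, show h * h ^ k * c * ((h ^ k)⁻¹ * h⁻¹) =
        h * (h ^ k * c * (h ^ k)⁻¹) * h⁻¹ by group, ih, ← conj_pow, e, ← pow_mul, pow_succ',
        ZMod.val_mul, ← pow_eq_pow_mod _ hcp]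
  have hN : h ∈ 𝐍(zpowers c) := mem_normalizer_of_cj_le (by
    rw [cj_zpowers, e]; exact zpowers_le.2 (pow_mem (mem_zpowers c) _))
  have hcard : Nat.card (zpowers c) = p := by rw [Nat.card_zpowers, hord]
  refine ⟨zpowers c, zpowers_le.2 (zpowers_le.2 hc₀ hc), hcard, ?_⟩
  let ρ : (H ⊓ 𝐍(zpowers c) : Subgroup G) →* MulAut (zpowers c) :=
    (zpowers c).normalizerMonoidHom.comp (inclusion inf_le_right)
  have hρ : ∀ (z : (H ⊓ 𝐍(zpowers c) : Subgroup G)) (w : zpowers c),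
      ((ρ z w : zpowers c) : G) = z * w * (z : G)⁻¹ := fun z w => rfl
  have hker : (H ⊓ 𝐂(zpowers c)).subgroupOf (H ⊓ 𝐍(zpowers c)) = ρ.ker := by
    ext z
    rw [mem_subgroupOf, MonoidHom.mem_ker, mem_inf, mem_centralizer_iff_commute]
    constructor
    · rintro ⟨-, hz⟩
      ext w
      rw [hρ, ← hz w w.2, mul_inv_cancel_right]
      rfl
    · intro hz
      refine ⟨z.2.1, fun w hw => ?_⟩
      have := hρ z ⟨w, hw⟩
      rw [hz] at this
      exact eq_mul_inv_iff_mul_eq.1 this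
  have hsurj : Function.Surjective ρ := by
    intro α
    obtain ⟨j, hj⟩ : ∃ j : ℕ, c ^ j = α ⟨c, mem_zpowers c⟩ :=
      mem_powers_iff_mem_zpowers.2 (α ⟨c, mem_zpowers c⟩).2
    have hj0 : (j : ZMod p) ≠ 0 := by
      intro h0
      rw [ZMod.natCast_eq_zero_iff, ← hord, orderOf_dvd_iff_pow_eq_one, hj] at h0
      have h1 : (⟨c, mem_zpowers c⟩ : zpowers c) = 1 := α.injective (by
        rw [map_one]; exact Subtype.ext h0)
      have h2 : c = 1 := congrArg Subtype.val h1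
      rw [h2, orderOf_one] at hord
      exact hp.out.one_lt.ne hord
    obtain ⟨k, hk⟩ := hμ j hj0
    refine ⟨⟨h, hh, hN⟩ ^ k, ?_⟩
    ext ⟨_, m, rfl⟩
    have h3 : (⟨c ^ m, m, rfl⟩ : zpowers c) = ⟨c, mem_zpowers c⟩ ^ m := rfl
    dsimp only
    rw [h3, map_zpow, map_zpow]
    congr 2
    apply Subtype.ext
    rw [hρ, ← hj]
    change h ^ k * c * (h ^ k)⁻¹ = _
    rw [ek, hk, ZMod.val_natCast, ← pow_eq_pow_mod _ hcp]
  rw [relIndex, hker, index_ker, MonoidHom.range_eq_top.2 hsurj, card_top, IsCyclic.card_mulAut,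
    hcard, Nat.totient_prime hp.out]

end H59.ZF
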